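import Cfsg.Agent.H706.Four.Group
import Cfsg.Agent.H721.FR.Base
import Mathlib.GroupTheory.Sylow

/-!
# Reducible 2-groups of isometries from four-groups (S4970)
-/

set_option autoImplicit false

universe u

namespace Cfsg.Agent.H706.Four

open Subgroup Cfsg.Agent.H721.FR Cfsg.Agent.H721.SR

variable {F V : Type u} [Field F] [AddCommGroup V] [Module F V]

/-- the minus identity -/
abbrev mi (F V : Type u) [Field F] [AddCommGroup V] [Module F V] : V ≃ₗ[F] V := LinearEquiv.neg F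

theorem mi_apply (x : V) : mi F V x = -x := rfl

theorem mi_mul_mi : mi F V * mi F V = 1 := by
  ext x
  show -(-x) = x
  exact neg_neg x

theorem mi_comm (g : V ≃ₗ[F] V) : g * mi F V = mi F V * g := by
  ext x
  show g (-x) = -(g x)
  exact map_neg g x

/-- an involution of `Isom B` normalised up to sign gives a decomposition -/
theorem red_of_inv {B : V →ₗ[F] V →ₗ[F] F} {ε : F} (h2 : (2 : F) ≠ 0) (hs : ∀ x y, B x y = ε * B y x)
    (hnd : ∀ x, (∀ y, B x y = 0) → x = 0) {a : V ≃ₗ[F] V} (ha : a ∈ Isom B) (haa : a * a = 1) (ha1 : a ≠ 1)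
    (ha2 : a ≠ mi F V) {K : Subgroup (V ≃ₗ[F] V)}
    (hK : ∀ g ∈ K, g * a * g⁻¹ = a ∨ g * a * g⁻¹ = mi F V * a) : Red B K := by
  have haax : ∀ x, a (a x) = x := fun x => LinearEquiv.congr_fun haa x
  have hhalf : ∀ x : V, x + x = 0 → x = 0 := fun x hx => by
    rw [← two_smul F] at hx
    exact (smul_eq_zero.1 hx).resolve_left h2
  have hB : ∀ x y, B (a x) (a y) = B x y := ha
  have hB0 : ∀ c : F, c = -c → c = 0 := fun c hc => by
    have : (2 : F) * c = 0 := by rw [two_mul]; nth_rewrite 1 [hc]; exact neg_add_cancel c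
    exact (mul_eq_zero.1 this).resolve_left h2
  let U : Submodule F V :=
    { carrier := {x | a x = x}
      add_mem' := fun {x y} hx hy => by
        show a (x + y) = x + y
        rw [map_add]
        exact congrArg₂ _ hx hy
      zero_mem' := map_zero a
      smul_mem' := fun c x hx => by
        show a (c • x) = c • x
        rw [map_smul]
        exact congrArg _ hx }
  have hU : ∀ x, x ∈ U ↔ a x = x := fun x => Iff.rfl
  have hUp : ∀ x, x + a x ∈ U := fun x => by
    rw [hU, map_add, haax, add_comm]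
  -- orthogonality of the two eigenspaces
  have horth : ∀ x y, a x = x → a y = -y → B x y = 0 := fun x y hx hy => by
    apply hB0
    rw [← map_neg, ← hy]
    nth_rewrite 2 [← hx]
    exact (hB x y).symm
  have hperp : ∀ x, x ∈ perp B U ↔ a x = -x := by
    intro x
    rw [mem_perp]
    constructor
    · intro h
      have h1 : x + a x = 0 := by
        apply hnd
        intro y
        have h3 : ∀ y, a y = y → B (x + a x) y = 0 := fun y hy => by
          rw [hs, map_add, h y hy]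
          have : B y (a x) = B y x := by
            nth_rewrite 1 [← hy]
            exact hB y x
          rw [this, h y hy]; simp
        have h4 : ∀ y, a y = -y → B (x + a x) y = 0 := fun y hy => horth _ _ (hUp x) hy
        have h5 : B (x + a x) (y + y) = 0 := by
          have : y + y = (y + a y) + (y - a y) := by abel
          rw [this, map_add, h3 _ (hUp y), h4 (y - a y) (by rw [map_sub, haax]; abel), add_zero]
        rw [map_add] at h5
        rw [← two_mul] at h5
        exact (mul_eq_zero.1 h5).resolve_left h2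
      exact eq_neg_of_add_eq_zero_right h1
    · intro h y hy
      exact horth y x hy h
  refine ⟨U, ?_, ?_, ?_, ?_⟩
  · intro h
    apply ha2
    ext x
    have := hUp x
    rw [h, Submodule.mem_bot] at this
    exact eq_neg_of_add_eq_zero_right this
  · intro h
    apply ha1
    ext x
    have : x ∈ U := by rw [h]; trivial
    exact this
  · intro x hx hy
    apply hnd
    intro y
    have h5 : B x (y + y) = 0 := by
      have : y + y = (y + a y) + (y - a y) := by abel
      rw [this, map_add, hy _ (hUp y), horth x (y - a y) hx (by rw [map_sub, haax]; abel), add_zero]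
    rw [map_add, ← two_mul] at h5
    exact (mul_eq_zero.1 h5).resolve_left h2
  · intro g hg
    rcases hK g hg with h | h
    · left
      have h1 : ∀ x, g (a x) = a (g x) := fun x => LinearEquiv.congr_fun (mul_inv_eq_iff_eq_mul.1 h) x
      ext y
      rw [Submodule.mem_map]
      constructor
      · rintro ⟨x, hx, rfl⟩
        show a (g x) = g x
        rw [← h1, (hU x).1 hx]
      · intro hy
        refine ⟨g.symm y, ?_, g.apply_symm_apply y⟩
        rw [hU]
        apply g.injective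
        rw [h1, g.apply_symm_apply]
        exact hy
    · right
      have h1 : ∀ x, g (a x) = -(a (g x)) := fun x => LinearEquiv.congr_fun (mul_inv_eq_iff_eq_mul.1 h) x
      ext y
      rw [Submodule.mem_map, hperp]
      constructor
      · rintro ⟨x, hx, rfl⟩
        show a (g x) = -(g x)
        rw [← neg_eq_iff_eq_neg, ← h1, (hU x).1 hx]
      · intro hy
        refine ⟨g.symm y, ?_, g.apply_symm_apply y⟩
        rw [hU]
        apply g.injective
        rw [h1, g.apply_symm_apply, hy, neg_neg]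

/-- a four-group of isometries commuting with `c` and normal in the 2-group `P` -/
theorem red_of_four {B : V →ₗ[F] V →ₗ[F] F} {ε : F} (h2 : (2 : F) ≠ 0) (hs : ∀ x y, B x y = ε * B y x)
    (hnd : ∀ x, (∀ y, B x y = 0) → x = 0) {c : V ≃ₗ[F] V} {P : Subgroup (V ≃ₗ[F] V)} [Finite P]
    (hP : IsPGroup 2 P) (hPB : P ≤ Isom B) {E : Subgroup (V ≃ₗ[F] V)} (hEP : E ≤ P)
    (hEc : ∀ x ∈ E, x * c = c * x) (hEn : ∀ g ∈ P, ∀ x ∈ E, g * x * g⁻¹ ∈ E) (hEe : ∀ x ∈ E, x * x = 1)
    (hE4 : Nat.card E = 4) : Red B (closure {c} ⊔ P) := by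
  have : Fact (Nat.Prime 2) := ⟨Nat.prime_two⟩
  have hEfin : Finite E := Nat.finite_of_card_ne_zero (by omega)
  -- reduction to `P` and `c`
  have key : ∀ a ∈ E, a ≠ 1 → a ≠ mi F V → (∀ g ∈ P, g * a * g⁻¹ = a ∨ g * a * g⁻¹ = mi F V * a) →
      Red B (closure {c} ⊔ P) := by
    intro a ha ha1 ha2 hg
    let L : Subgroup (V ≃ₗ[F] V) :=
      { carrier := {g | g * a * g⁻¹ = a ∨ g * a * g⁻¹ = mi F V * a}
        mul_mem' := by
          intro g h hg hh
          have e : g * h * a * (g * h)⁻¹ = g * (h * a * h⁻¹) * g⁻¹ := by group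
          show g * h * a * (g * h)⁻¹ = a ∨ g * h * a * (g * h)⁻¹ = mi F V * a
          rw [e]
          rcases hh with hh | hh
          · rw [hh]; exact hg
          · have e2 : g * (mi F V * a) * g⁻¹ = mi F V * (g * a * g⁻¹) := by
              rw [← mul_assoc, mi_comm]; group
            rw [hh, e2]
            rcases hg with hg | hg
            · right; rw [hg]
            · left; rw [hg, ← mul_assoc, mi_mul_mi, one_mul]
        one_mem' := by
          left; group
        inv_mem' := by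
          intro g hg
          show g⁻¹ * a * g⁻¹⁻¹ = a ∨ g⁻¹ * a * g⁻¹⁻¹ = mi F V * a
          rcases hg with hg | hg
          · left
            have : a = g⁻¹ * (g * a * g⁻¹) * g := by group
            rw [hg] at this
            rw [inv_inv]
            exact this.symm
          · right
            have : a = g⁻¹ * (g * a * g⁻¹) * g := by group
            rw [hg] at this
            have e2 : g⁻¹ * (mi F V * a) * g = mi F V * (g⁻¹ * a * g) := by
              rw [← mul_assoc, mi_comm]; group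
            rw [e2] at this
            rw [inv_inv]
            nth_rewrite 2 [this]
            rw [← mul_assoc, mi_mul_mi, one_mul] }
    refine red_of_inv h2 hs hnd (hPB (hEP ha)) (hEe a ha) ha1 ha2 (K := closure {c} ⊔ P) ?_
    have hle : closure {c} ⊔ P ≤ L := by
      refine sup_le ((closure_le _).2 ?_) (fun g hgP => hg g hgP)
      rintro x rfl
      left
      rw [← hEc a ha]; group
    exact fun g hg => hle hg
  have : Finite P := inferInstance
  -- a central involution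
  have hEPn : (E.subgroupOf P).Normal := ⟨fun x hx g => by
    rw [mem_subgroupOf] at hx ⊢
    exact hEn g g.2 x hx⟩
  have hEbot : E.subgroupOf P ≠ ⊥ := by
    intro h
    rw [subgroupOf_eq_bot, disjoint_iff, inf_eq_left.2 hEP] at h
    rw [h, card_bot] at hE4
    omega
  obtain ⟨z, hz, hz1, hzc⟩ := H777.PGrp.inf_center_ne_bot hP hEbot hEPn
  rw [mem_subgroupOf] at hz
  have hz1' : (z : V ≃ₗ[F] V) ≠ 1 := fun h => hz1 (Subtype.ext h)
  have hzc' : ∀ g ∈ P, g * (z : V ≃ₗ[F] V) * g⁻¹ = z := fun g hg => by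
    have := congrArg Subtype.val (hzc ⟨g, hg⟩)
    exact mul_inv_eq_iff_eq_mul.2 this
  by_cases hzm : (z : V ≃ₗ[F] V) = mi F V
  · -- `-1 ∈ E`
    have hex : ∃ a ∈ E, a ≠ 1 ∧ a ≠ mi F V := by
      by_contra hcon
      push Not at hcon
      have hsub : (E : Set (V ≃ₗ[F] V)) ⊆ {1, mi F V} := by
        intro x hx
        by_cases hx1 : x = 1
        · exact Or.inl hx1
        · exact Or.inr (hcon x hx hx1)
      have h3 : (E : Set (V ≃ₗ[F] V)).ncard ≤ 2 :=
        (Set.ncard_le_ncard hsub (Set.toFinite _)).trans ((Set.ncard_insert_le _ _).trans (by rw [Set.ncard_singleton]))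
      have h4 : (E : Set (V ≃ₗ[F] V)).ncard = Nat.card E := rfl
      omega
    obtain ⟨a, ha, ha1, ha2⟩ := hex
    refine key a ha ha1 ha2 fun g hg => ?_
    have hga := hEn g hg a ha
    -- `E = {1, -1, a, -a}`
    by_contra hcon
    push Not at hcon
    obtain ⟨h3, h4⟩ := hcon
    set b := g * a * g⁻¹ with hb
    have hmE : mi F V ∈ E := hzm ▸ hz
    have hb1 : b ≠ 1 := by
      intro h
      apply ha1
      have : a = g⁻¹ * (g * a * g⁻¹) * g := by group
      rw [← hb, h] at this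
      rw [this]; group
    have hb2 : b ≠ mi F V := by
      intro h
      apply ha2
      have : a = g⁻¹ * (g * a * g⁻¹) * g := by group
      rw [← hb, h, mi_comm, mul_assoc, inv_mul_cancel, mul_one] at this
      exact this
    have hsub : (↑({1, mi F V, a, mi F V * a, b} : Set (V ≃ₗ[F] V))) ⊆ (E : Set (V ≃ₗ[F] V)) := by
      intro x hx
      simp only [Set.mem_insert_iff, Set.mem_singleton_iff] at hx
      rcases hx with rfl | rfl | rfl | rfl | rfl
      · exact E.one_mem
      · exact hmE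
      · exact ha
      · exact E.mul_mem hmE ha
      · exact hga
    have hm1 : mi F V ≠ 1 := fun h => hz1' (hzm.trans h)
    have hcard : (({1, mi F V, a, mi F V * a, b} : Set (V ≃ₗ[F] V))).ncard = 5 := by
      rw [Set.ncard_insert_of_notMem, Set.ncard_insert_of_notMem, Set.ncard_insert_of_notMem,
        Set.ncard_insert_of_notMem, Set.ncard_singleton]
      · rw [Set.mem_singleton_iff]; exact fun h => h4 h.symm
      · simp only [Set.mem_insert_iff, Set.mem_singleton_iff, not_or]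
        refine ⟨fun h => hm1 ?_, fun h => h3 h.symm⟩
        exact (mul_right_cancel (b := a) (by rw [one_mul]; exact h)).symm
      · simp only [Set.mem_insert_iff, Set.mem_singleton_iff, not_or]
        refine ⟨fun h => ha2 h.symm, fun h => ha1 ?_, fun h => hb2 h.symm⟩
        exact (mul_left_cancel (a := mi F V) (by rw [mul_one]; exact h)).symm
      · simp only [Set.mem_insert_iff, Set.mem_singleton_iff, not_or]
        refine ⟨fun h => hm1 h.symm, fun h => ha1 h.symm, fun h => ha2 ?_, fun h => hb1 h.symm⟩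
        have h5 : a = mi F V * (mi F V * a) := by rw [← mul_assoc, mi_mul_mi, one_mul]
        rw [← h, mul_one] at h5
        exact h5
    have h3 := Set.ncard_le_ncard hsub (Set.toFinite _)
    have h4 : (E : Set (V ≃ₗ[F] V)).ncard = Nat.card E := rfl
    omega
  · exact key z hz hz1' hzm fun g hg => Or.inl (hzc' g hg)

/-- the same from a subgroup of small exponent -/
theorem red_of_exp {B : V →ₗ[F] V →ₗ[F] F} {ε : F} (h2 : (2 : F) ≠ 0) (hs : ∀ x y, B x y = ε * B y x)
    (hnd : ∀ x, (∀ y, B x y = 0) → x = 0) {c : V ≃ₗ[F] V} {P : Subgroup (V ≃ₗ[F] V)} [Finite P]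
    (hP : IsPGroup 2 P) (hPB : P ≤ Isom B) (hPc : ∀ g ∈ P, g * c * g⁻¹ = c ∨ g * c * g⁻¹ = c⁻¹)
    {D : Subgroup (V ≃ₗ[F] V)} (hDP : D ≤ P) (hDc : ∀ x ∈ D, x * c = c * x) {e : ℕ} (he0 : 0 < e)
    (he : ∀ x ∈ D, x ^ e = 1) (hcard : 2 * e < Nat.card D) : Red B (closure {c} ⊔ P) := by
  -- the centraliser of `c` in `P`
  let N : Subgroup P := (centralizer {c}).subgroupOf P
  have hN : ∀ x : P, x ∈ N ↔ (x : V ≃ₗ[F] V) * c = c * x := fun x => by
    rw [mem_subgroupOf, mem_centralizer_singleton_iff]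
  have hNn : N.Normal := ⟨fun x hx g => by
    rw [hN] at hx ⊢
    have e1 : ((g * x * g⁻¹ : P) : V ≃ₗ[F] V) = (g : V ≃ₗ[F] V) * x * (g : V ≃ₗ[F] V)⁻¹ := rfl
    rw [e1]
    have hc1 : (g : V ≃ₗ[F] V)⁻¹ * c = c * (g : V ≃ₗ[F] V)⁻¹ ∨ (g : V ≃ₗ[F] V)⁻¹ * c = c⁻¹ * (g : V ≃ₗ[F] V)⁻¹ := by
      rcases hPc _ (P.inv_mem g.2) with h | h
      · left; exact mul_inv_eq_iff_eq_mul.1 h
      · right; exact mul_inv_eq_iff_eq_mul.1 h
    have hxc : (x : V ≃ₗ[F] V) * c⁻¹ = c⁻¹ * x := by
      have : Commute (x : V ≃ₗ[F] V) c := hx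
      exact this.inv_right.eq
    rcases hc1 with h | h
    · have hg : (g : V ≃ₗ[F] V) * c = c * g := by
        have : c = (g : V ≃ₗ[F] V) * ((g : V ≃ₗ[F] V)⁻¹ * c) := by group
        nth_rewrite 2 [this]
        rw [h]; group
      calc (g : V ≃ₗ[F] V) * x * (g : V ≃ₗ[F] V)⁻¹ * c = (g : V ≃ₗ[F] V) * x * ((g : V ≃ₗ[F] V)⁻¹ * c) := by group
        _ = (g : V ≃ₗ[F] V) * (x * c) * (g : V ≃ₗ[F] V)⁻¹ := by rw [h]; group
        _ = ((g : V ≃ₗ[F] V) * c) * x * (g : V ≃ₗ[F] V)⁻¹ := by rw [hx]; group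
        _ = _ := by rw [hg]; group
    · have hg : (g : V ≃ₗ[F] V) * c⁻¹ = c * g := by
        have : c = (g : V ≃ₗ[F] V) * ((g : V ≃ₗ[F] V)⁻¹ * c) := by group
        nth_rewrite 2 [this]
        rw [h]; group
      calc (g : V ≃ₗ[F] V) * x * (g : V ≃ₗ[F] V)⁻¹ * c = (g : V ≃ₗ[F] V) * x * ((g : V ≃ₗ[F] V)⁻¹ * c) := by group
        _ = (g : V ≃ₗ[F] V) * (x * c⁻¹) * (g : V ≃ₗ[F] V)⁻¹ := by rw [h]; group
        _ = ((g : V ≃ₗ[F] V) * c⁻¹) * x * (g : V ≃ₗ[F] V)⁻¹ := by rw [hxc]; group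
        _ = _ := by rw [hg]; group⟩
  have hD : D.subgroupOf P ≤ N := fun x hx => (hN x).2 (hDc x hx)
  obtain ⟨E, hEN, hEn, hEe, hE4⟩ := exists_four_of_exp hP hNn hD he0
    (fun x hx => Subtype.ext (he x hx)) (by rwa [Nat.card_congr (subgroupOfEquivOfLe hDP).toEquiv])
  refine red_of_four h2 hs hnd hP hPB (E := E.map P.subtype) (map_subtype_le E) ?_ ?_ ?_ ?_
  · rintro x ⟨y, hy, rfl⟩
    exact (hN y).1 (hEN hy)
  · rintro g hg x ⟨y, hy, rfl⟩
    exact ⟨⟨g, hg⟩ * y * ⟨g, hg⟩⁻¹, hEn.conj_mem y hy ⟨g, hg⟩, rfl⟩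
  · rintro x ⟨y, hy, rfl⟩
    exact congrArg Subtype.val (hEe y hy)
  · rw [Nat.card_congr (E.equivMapOfInjective _ P.subtype_injective).toEquiv.symm]
    exact hE4

/-- for `P` maximal: it is enough that the centraliser of `c` in `Isom B` contains such a 2-subgroup `D` -/
theorem red_of_mx {B : V →ₗ[F] V →ₗ[F] F} {ε : F} (h2 : (2 : F) ≠ 0) (hs : ∀ x y, B x y = ε * B y x)
    (hnd : ∀ x, (∀ y, B x y = 0) → x = 0) [Finite (V ≃ₗ[F] V)] {c : V ≃ₗ[F] V} {P : Subgroup (V ≃ₗ[F] V)}
    (hP : Mx B c P) {D : Subgroup (V ≃ₗ[F] V)} (hD2 : IsPGroup 2 D) (hDB : D ≤ Isom B)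
    (hDc : ∀ x ∈ D, x * c = c * x) {e : ℕ} (he0 : 0 < e) (he : ∀ x ∈ D, x ^ e = 1)
    (hcard : 2 * e < Nat.card D) : Red B (closure {c} ⊔ P) := by
  have : Fact (Nat.Prime 2) := ⟨Nat.prime_two⟩
  let H : Subgroup (V ≃ₗ[F] V) := Isom B ⊓
    { carrier := {g | g * c * g⁻¹ = c ∨ g * c * g⁻¹ = c⁻¹}
      mul_mem' := by
        intro g h hg hh
        have e1 : g * h * c * (g * h)⁻¹ = g * (h * c * h⁻¹) * g⁻¹ := by group
        show g * h * c * (g * h)⁻¹ = c ∨ g * h * c * (g * h)⁻¹ = c⁻¹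
        rw [e1]
        rcases hh with hh | hh
        · rw [hh]; exact hg
        · have e2 : g * c⁻¹ * g⁻¹ = (g * c * g⁻¹)⁻¹ := by group
          rw [hh, e2]
          rcases hg with hg | hg
          · right; rw [hg]
          · left; rw [hg, inv_inv]
      one_mem' := by left; group
      inv_mem' := by
        intro g hg
        show g⁻¹ * c * g⁻¹⁻¹ = c ∨ g⁻¹ * c * g⁻¹⁻¹ = c⁻¹
        have e1 : c = g⁻¹ * (g * c * g⁻¹) * g := by group
        rw [inv_inv]
        rcases hg with hg | hg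
        · left; rw [hg] at e1; exact e1.symm
        · right
          rw [hg] at e1
          have e2 : g⁻¹ * c * g = (g⁻¹ * c⁻¹ * g)⁻¹ := by group
          rw [e2, ← e1] }
  have hH : ∀ g, g ∈ H ↔ g ∈ Isom B ∧ (g * c * g⁻¹ = c ∨ g * c * g⁻¹ = c⁻¹) := fun g => Iff.rfl
  have hPH : P ≤ H := fun g hg => ⟨hP.le hg, hP.act g hg⟩
  have hDH : D ≤ H := fun g hg => ⟨hDB hg, by left; rw [hDc g hg]; group⟩
  have hfinH : Finite H := inferInstance
  -- `P` is a Sylow subgroup of `H`
  obtain ⟨Q, hQ⟩ := (hP.two.of_equiv (subgroupOfEquivOfLe hPH).symm : IsPGroup 2 (P.subgroupOf H)).exists_le_sylow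
  have hQP : (Q : Subgroup H) = P.subgroupOf H := by
    have h3 := hP.max ((Q : Subgroup H).map H.subtype) (fun x hx => ⟨⟨x, hPH hx⟩, hQ hx, rfl⟩)
      (fun x hx => (map_subtype_le _ hx).1) (Q.isPGroup'.map _) (fun x hx => (map_subtype_le _ hx).2)
    rw [← h3, subgroupOf, comap_map_eq_self_of_injective H.subtype_injective]
  obtain ⟨R, hR⟩ := (hD2.of_equiv (subgroupOfEquivOfLe hDH).symm : IsPGroup 2 (D.subgroupOf H)).exists_le_sylow
  obtain ⟨g, hg⟩ := MulAction.exists_smul_eq H R Q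
  have hconj : ∀ x ∈ D, (g : V ≃ₗ[F] V) * x * (g : V ≃ₗ[F] V)⁻¹ ∈ P := by
    intro x hx
    have h3 : (⟨x, hDH hx⟩ : H) ∈ (R : Subgroup H) := hR hx
    have h4 : g * (⟨x, hDH hx⟩ : H) * g⁻¹ ∈ (Q : Subgroup H) := by
      rw [← hg]
      exact Subgroup.smul_mem_pointwise_smul _ (MulAut.conj g) _ h3
    rw [hQP] at h4
    exact h4
  have hfin : Finite P := inferInstance
  let φ : (V ≃ₗ[F] V) ≃* (V ≃ₗ[F] V) := MulAut.conj (g : V ≃ₗ[F] V)
  refine red_of_exp h2 hs hnd hP.two hP.le hP.act (D := D.map φ.toMonoidHom) (e := e) ?_ ?_ he0 ?_ ?_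
  · rintro x ⟨y, hy, rfl⟩
    exact hconj y hy
  · rintro x ⟨y, hy, rfl⟩
    show (g : V ≃ₗ[F] V) * y * (g : V ≃ₗ[F] V)⁻¹ * c = c * ((g : V ≃ₗ[F] V) * y * (g : V ≃ₗ[F] V)⁻¹)
    have hyc : Commute y c := hDc y hy
    have h3 : (g : V ≃ₗ[F] V)⁻¹ * c * g = c ∨ (g : V ≃ₗ[F] V)⁻¹ * c * g = c⁻¹ := by
      have := (H.inv_mem g.2).2
      rcases this with h | h
      · left; simpa using h
      · right; simpa using h
    have h4 : Commute y ((g : V ≃ₗ[F] V)⁻¹ * c * g) := by
      rcases h3 with h | h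
      · rw [h]; exact hyc
      · rw [h]; exact hyc.inv_right
    calc (g : V ≃ₗ[F] V) * y * (g : V ≃ₗ[F] V)⁻¹ * c =
        (g : V ≃ₗ[F] V) * (y * ((g : V ≃ₗ[F] V)⁻¹ * c * g)) * (g : V ≃ₗ[F] V)⁻¹ := by group
      _ = _ := by rw [h4.eq]; group
  · rintro x ⟨y, hy, rfl⟩
    rw [← map_pow, he y hy, map_one]
  · rw [Nat.card_congr (D.equivMapOfInjective φ.toMonoidHom φ.injective).toEquiv.symm]
    exact hcard

/-- the same for the image of an injective homomorphism -/
theorem red_of_hom {B : V →ₗ[F] V →ₗ[F] F} {ε : F} (h2 : (2 : F) ≠ 0) (hs : ∀ x y, B x y = ε * B y x)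
    (hnd : ∀ x, (∀ y, B x y = 0) → x = 0) [Finite (V ≃ₗ[F] V)] {c : V ≃ₗ[F] V} {P : Subgroup (V ≃ₗ[F] V)}
    (hP : Mx B c P) {A : Type*} [Group A] (hA : IsPGroup 2 A) {φ : A →* (V ≃ₗ[F] V)} (hφ : Function.Injective φ)
    (hB : ∀ a, φ a ∈ Isom B) (hc : ∀ a, φ a * c = c * φ a) {e : ℕ} (he0 : 0 < e) (he : ∀ a : A, a ^ e = 1)
    (hcard : 2 * e < Nat.card A) : Red B (closure {c} ⊔ P) := by
  refine red_of_mx h2 hs hnd hP (D := φ.range) (e := e) (hA.of_surjective φ.rangeRestrict φ.rangeRestrict_surjective)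
    ?_ ?_ he0 ?_ ?_
  · rintro x ⟨a, rfl⟩
    exact hB a
  · rintro x ⟨a, rfl⟩
    exact hc a
  · rintro x ⟨a, rfl⟩
    rw [← map_pow, he, map_one]
  · rw [← Nat.card_congr (MonoidHom.ofInjective hφ).toEquiv]
    exact hcard

/-- version for `Fm` -/
theorem red_of_fm [Finite F] [FiniteDimensional F V] {B : V →ₗ[F] V →ₗ[F] F} {ε : F} (hF : Fm B ε)
    {c : V ≃ₗ[F] V} {P : Subgroup (V ≃ₗ[F] V)}
    (hP : Mx B c P) {A : Type*} [Group A] (hA : IsPGroup 2 A) {φ : A →* (V ≃ₗ[F] V)} (hφ : Function.Injective φ)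
    (hB : ∀ a, φ a ∈ Isom B) (hc : ∀ a, φ a * c = c * φ a) {e : ℕ} (he0 : 0 < e) (he : ∀ a : A, a ^ e = 1)
    (hcard : 2 * e < Nat.card A) : Red B (closure {c} ⊔ P) := by
  have : Finite V := Module.finite_of_finite F
  have : Finite (V ≃ₗ[F] V) := DFunLike.finite _
  exact red_of_hom hF.two hF.symm hF.nondeg hP hA hφ hB hc he0 he hcard

end Cfsg.Agent.H706.Four
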